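import Cfsg.Agent.Lib.Suzuki.SylowTwo
import Cfsg.Agent.Lib.Suzuki.LieBridge

/-!
The rank-one structure transported to any isomorphic group.
-/

set_option autoImplicit false

namespace CfsgLib.Suzuki

open scoped Pointwise

variable {F : Type*} [Field F] {m : ℕ}

/-- Rank-one structure of a group isomorphic to the Suzuki group. -/
theorem Hyp.rankOne (h : Hyp F m) {G : Type*} [Group G] (e : Cfsg.Sz F m ≃* G) :
    ∃ S : Sylow 2 G,
      Nat.card (Subgroup.normalizer ((S : Subgroup G) : Set G)) = (2 ^ (2 * m + 1)) ^ 2 * (2 ^ (2 * m + 1) - 1) ∧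
      (Subgroup.normalizer ((S : Subgroup G) : Set G)).index = (2 ^ (2 * m + 1)) ^ 2 + 1 ∧
      MulAction.IsMultiplyPretransitive G (G ⧸ Subgroup.normalizer ((S : Subgroup G) : Set G)) 2 ∧
      ∀ x y : G ⧸ Subgroup.normalizer ((S : Subgroup G) : Set G),
        x ≠ (QuotientGroup.mk 1) → y ≠ (QuotientGroup.mk 1) → ∃! s : ↥(S : Subgroup G), (s : G) • x = y := by
  have := h.finite_group
  have := Finite.of_equiv _ e.toEquiv
  have : Fact (Nat.Prime 2) := ⟨Nat.prime_two⟩
  let S : Sylow 2 G := Sylow.ofCard (h.U.map e.toMonoidHom) (by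
    rw [← Nat.card_congr (h.U.equivMapOfInjective e.toMonoidHom e.injective).toEquiv,
      ← Nat.card_congr e.toEquiv, h.card_U, h.factorization_two, ← pow_mul, mul_comm])
  have hS : (S : Subgroup G) = h.U.map e.toMonoidHom := by simp [S, Sylow.coe_ofCard]
  refine ⟨S, ?_⟩
  have hN : Subgroup.normalizer ((S : Subgroup G) : Set G) =
      (MulAction.stabilizer (Cfsg.Sz F m) (oInf F m)).map e.toMonoidHom := by
    ext g
    obtain ⟨g, rfl⟩ := e.surjective g
    rw [hS, Subgroup.mem_map_equiv, e.symm_apply_apply, ← h.normalizer_U, Subgroup.mem_normalizer_iff,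
      Subgroup.mem_normalizer_iff]
    constructor
    · intro hh v
      have := hh (e v)
      rwa [Subgroup.mem_map_equiv, Subgroup.mem_map_equiv, map_mul, map_mul, map_inv, e.symm_apply_apply,
        e.symm_apply_apply] at this
    · intro hh v
      obtain ⟨v, rfl⟩ := e.surjective v
      rw [Subgroup.mem_map_equiv, Subgroup.mem_map_equiv, map_mul, map_mul, map_inv, e.symm_apply_apply,
        e.symm_apply_apply]
      exact hh v
  set H := Subgroup.normalizer ((S : Subgroup G) : Set G) with hH
  have hmem : ∀ g : G, g ∈ H ↔ e.symm g • oInf F m = oInf F m := by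
    intro g
    rw [hN, Subgroup.mem_map_equiv]; rfl
  let π : G ⧸ H → Cfsg.suzukiOvoid F m := fun x =>
    Quotient.liftOn' x (fun g => e.symm g • oInf F m) (by
      intro a b hab
      rw [QuotientGroup.leftRel_apply, hmem, map_mul, map_inv, mul_smul, inv_smul_eq_iff] at hab
      exact hab.symm)
  have hπ : ∀ g : G, π (QuotientGroup.mk g) = e.symm g • oInf F m := fun _ => rfl
  have hπs : ∀ (g : G) (x : G ⧸ H), π (g • x) = e.symm g • π x := by
    intro g x
    induction x using QuotientGroup.induction_on with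
    | H a => rw [MulAction.Quotient.smul_mk, hπ, hπ, smul_eq_mul, map_mul, mul_smul]
  have hinj : Function.Injective π := by
    intro x y
    induction x using QuotientGroup.induction_on with
    | H a =>
      induction y using QuotientGroup.induction_on with
      | H b =>
        intro hab
        rw [QuotientGroup.eq, hmem, map_mul, map_inv, mul_smul, inv_smul_eq_iff]
        exact hab.symm
  have hsurj : Function.Surjective π := fun p => by
    obtain ⟨g, rfl⟩ := h.exists_smul_inf_eq p
    exact ⟨QuotientGroup.mk (e g), by rw [hπ, e.symm_apply_apply]⟩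
  refine ⟨?_, ?_, ?_, ?_⟩
  · rw [hN, ← Nat.card_congr ((MulAction.stabilizer (Cfsg.Sz F m) (oInf F m)).equivMapOfInjective
      e.toMonoidHom e.injective).toEquiv, h.card_stabilizer_inf]
  · rw [Subgroup.index, Nat.card_congr (Equiv.ofBijective π ⟨hinj, hsurj⟩), h.card_suzukiOvoid]
  · rw [MulAction.is_two_pretransitive_iff]
    intro x x' y y' hx hy
    obtain ⟨g, g1, g2⟩ := (MulAction.is_two_pretransitive_iff).1 h.isMultiplyPretransitive
      (hinj.ne hx) (hinj.ne hy)
    exact ⟨e g, hinj (by rw [hπs, e.symm_apply_apply, g1]), hinj (by rw [hπs, e.symm_apply_apply, g2])⟩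
  · intro x y hx hy
    rcases ovoid_cases (π x) with hx' | ⟨a, b, hx'⟩
    · exact absurd (hinj (hx'.trans (by rw [hπ, map_one, one_smul]))) hx
    rcases ovoid_cases (π y) with hy' | ⟨c, d, hy'⟩
    · exact absurd (hinj (hy'.trans (by rw [hπ, map_one, one_smul]))) hy
    have hv : e (h.u (c + a) (d + b + th m (c + a) * a)) ∈ (S : Subgroup G) := by
      rw [hS]; exact Subgroup.mem_map_of_mem _ (h.u_mem_U _ _)
    refine ⟨⟨_, hv⟩, hinj ?_, ?_⟩
    · rw [hπs, e.symm_apply_apply, hx', hy', h.u_smul]
      congr 1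
      · linear_combination a * h.two_eq_zero
      · linear_combination (b + th m (c + a) * a) * h.two_eq_zero
    · rintro ⟨s, hs⟩ hsx
      obtain ⟨_, ⟨p, q, rfl⟩, rfl⟩ := Subgroup.mem_map.1 (hS ▸ hs)
      have he' := congrArg π hsx
      simp only [hπs, MulEquiv.coe_toMonoidHom, MulEquiv.symm_apply_apply, hx', hy', h.u_smul] at he'
      obtain ⟨e1, e2⟩ := oPt_injective he'
      refine Subtype.ext ?_
      show e (h.u p q) = e (h.u (c + a) (d + b + th m (c + a) * a))
      have hp : p = c + a := by linear_combination e1 - a * h.two_eq_zero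
      rw [hp] at e2 ⊢
      congr 2
      linear_combination e2 - (b + th m (c + a) * a) * h.two_eq_zero

end CfsgLib.Suzuki
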